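import Cfsg.Agent.ChevalleyStructure.UnipProd
import Cfsg.Agent.H357.EP.V27
import Cfsg.Agent.OrdDiv.Main

/-!
# S5745, row `E₆(9)`, `T = F₄(2)` (helper296)

In characteristic two the root elements `x_r(t)` of `F₄`, `r` one of the last seven roots, generate an elementary
abelian group of order `q ^ 7`; the elementary abelian 2-subgroups of `E₆(q)`, `q` odd, have order at most `64`.
-/

set_option autoImplicit false
set_option linter.unusedVariables false

namespace Cfsg.Agent.H296.FN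

open Cfsg Cfsg.Lie Cfsg.Agent.H357.EP
open Cfsg.Agent.ChevalleyStructure.Elts Cfsg.Agent.ChevalleyStructure.UnipOrd
open Cfsg.Agent.ChevalleyStructure.UnipProd

theorem f4_terms : ∀ r ∈ List.range 7, ∀ s ∈ List.range 7, r ≠ s → chevF4.commTerms (41 + r) (41 + s) = [] := by
  decide +kernel

theorem f4_in : Cfsg.Agent.ChevalleyStructure.UnipOrd.InList chevF4 := by
  simp [Cfsg.Agent.ChevalleyStructure.UnipOrd.InList]

theorem f4_roots : chevF4.nroots = 48 := rfl

variable (K : Type) [Field K]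

/-- the subgroup of the last seven roots -/
abbrev A7 : Subgroup (GL chevF4.Idx K) := unipGE chevF4 K 41

variable {K}

theorem f4_comm {r s : ℕ} (hr : 41 ≤ r) (hr' : r < 48) (hs : 41 ≤ s) (hs' : s < 48) (t u : K) :
    xG f4_in s u * xG f4_in r t = xG f4_in r t * xG f4_in s u := by
  by_cases hrs : s = r
  · rw [hrs, xG_add, xG_add, add_comm]
  · have hp : ∀ {r : ℕ}, 41 ≤ r → r < 48 → chevF4.IsPosRoot r := fun {r} h1 h2 =>
      (isPosRoot_iff f4_in r).2 ⟨by rw [f4_roots]; omega, h2⟩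
    have h := xG_comm f4_in (r := r) (s := s) hr' hs' hrs
      (ne_neg_of_pos f4_in (hp hr hr') (hp hs hs')) t u
    have h1 : chevF4.commWord K r s t u = [] := by
      unfold ChevalleyDatum.commWord
      have h2 := f4_terms (r - 41) (List.mem_range.2 (by omega)) (s - 41) (List.mem_range.2 (by omega)) (by omega)
      rw [show 41 + (r - 41) = r by omega, show 41 + (s - 41) = s by omega] at h2
      rw [h2, List.map_nil]
    rw [h, h1, wordG_nil, mul_one]

theorem A7_gen {g : GL chevF4.Idx K}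
    (hg : g ∈ {g : GL chevF4.Idx K | ∃ (r : ℕ) (t : K), chevF4.IsPosRoot r ∧ 41 ≤ r ∧
      (g : Matrix chevF4.Idx chevF4.Idx K) = chevF4.x K r t}) :
    ∃ r t, 41 ≤ r ∧ r < 48 ∧ g = xG f4_in r t := by
  obtain ⟨r, t, h1, h2, h3⟩ := hg
  exact ⟨r, t, h2, h1.1, (eq_xG_iff f4_in g r t).2 h3⟩

theorem A7_comm {g h : GL chevF4.Idx K} (hg : g ∈ A7 K) (hh : h ∈ A7 K) : g * h = h * g := by
  have h1 : A7 K ≤ Subgroup.centralizer (A7 K : Set (GL chevF4.Idx K)) := by
    unfold A7 unipGE
    rw [Subgroup.centralizer_closure, Subgroup.closure_le]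
    intro g hg
    rw [SetLike.mem_coe, Subgroup.mem_centralizer_iff]
    intro h hh
    obtain ⟨r, t, hr, hr', rfl⟩ := A7_gen hg
    obtain ⟨s, u, hs, hs', rfl⟩ := A7_gen hh
    exact f4_comm hr hr' hs hs' t u
  exact (Subgroup.mem_centralizer_iff.1 (h1 hg) h hh).symm

theorem A7_sq [CharP K 2] {g : GL chevF4.Idx K} (hg : g ∈ A7 K) : g * g = 1 := by
  have h1 : ∀ g (_ : g ∈ Subgroup.closure {g : GL chevF4.Idx K | ∃ (r : ℕ) (t : K), chevF4.IsPosRoot r ∧ 41 ≤ r ∧
      (g : Matrix chevF4.Idx chevF4.Idx K) = chevF4.x K r t}), g * g = 1 := by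
    intro g hg
    induction hg using Subgroup.closure_induction with
    | mem x hx =>
      obtain ⟨r, t, hr, hr', rfl⟩ := A7_gen hx
      rw [xG_add, CharTwo.add_self_eq_zero, xG_zero]
    | one => exact one_mul 1
    | mul x y hx hy h1 h2 =>
      have h3 := A7_comm (g := x) (h := y) hx hy
      calc x * y * (x * y) = x * (y * x) * y := by group
        _ = (x * x) * (y * y) := by rw [← h3]; group
        _ = 1 := by rw [h1, h2, one_mul]
    | inv x hx h1 => rw [← mul_inv_rev, h1, inv_one]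
  exact h1 g hg

theorem A7_le : A7 K ≤ chevF4.group K := by
  unfold A7 unipGE
  rw [Subgroup.closure_le]
  intro g hg
  obtain ⟨r, t, hr, hr', rfl⟩ := A7_gen hg
  exact xG_mem_group f4_in r t

theorem f4_half : chevF4.nroots / 2 ≤ 41 := by
  rw [f4_roots]; norm_num

/-- the coefficients -/
def cf (c : Fin 7 → K) (r : ℕ) : K := if h : r - 41 < 7 then c ⟨r - 41, h⟩ else 0

/-- the product -/
noncomputable def pr7 (c : Fin 7 → K) : GL chevF4.Idx K := wordG f4_in ((rootsGE chevF4 41).map fun r => (r, cf c r))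

theorem pr7_mem (c : Fin 7 → K) : pr7 c ∈ A7 K := wordG_mem_unipGE f4_in f4_half _

theorem pr7_inj : Function.Injective (pr7 (K := K)) := by
  intro c c' e
  have h1 := prod_injective f4_in (k := 41) f4_half e
  funext i
  have h2 := h1 (41 + i.val) (by omega) (by rw [f4_roots]; omega)
  unfold cf at h2
  rw [dif_pos (by omega), dif_pos (by omega)] at h2
  have h3 : (⟨41 + i.val - 41, by omega⟩ : Fin 7) = i := Fin.ext (by simp)
  rwa [h3] at h2

theorem A7_card [Finite K] : 64 < Nat.card (A7 K) := by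
  have : Finite (GL chevF4.Idx K) := inferInstance
  have h1 := Nat.card_le_card_of_injective (fun c : Fin 7 → K => (⟨pr7 c, pr7_mem c⟩ : A7 K))
    (fun c c' e => pr7_inj (Subtype.ext_iff.1 e))
  rw [Nat.card_fun, Nat.card_eq_fintype_card (α := Fin 7), Fintype.card_fin] at h1
  have h2 : 2 ≤ Nat.card K := Finite.one_lt_card
  calc 64 < 2 ^ 7 := by norm_num
    _ ≤ Nat.card K ^ 7 := Nat.pow_le_pow_left h2 7
    _ ≤ _ := h1

/-- `F₄(2^k)` is not in `E₆(q)`, `²E₆(q)`, `q` odd -/
theorem not_inE6_f4 {q : ℕ} (hq : Even q) {T : Type*} [Group T] (hT : OrdDiv.Real (.f4 q) T) : ¬ InE6 T := by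
  intro h
  obtain ⟨K, iK, iK', hK, ⟨g⟩⟩ := hT
  have hp : CharP K 2 := by
    obtain ⟨p, hp⟩ := CharP.exists K
    obtain ⟨n, hpp, hn⟩ := FiniteField.card K p
    have h1 : Even (p ^ (n : ℕ)) := by rw [← hn, hK]; exact hq
    have h3 : p = 2 := by
      by_contra h
      exact (Nat.not_even_iff_odd.2 ((hpp.odd_of_ne_two h).pow)) h1
    exact h3 ▸ hp
  have h1 := h.card_le_hom (A := A7 K) (fun x => Subtype.ext (A7_sq x.2))
    (g.symm.toMonoidHom.comp (Subgroup.inclusion A7_le))
    (g.symm.injective.comp (Subgroup.inclusion_injective _))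
  have h2 := A7_card (K := K)
  omega

/-- **row `E₆(9)`, `T = F₄(2)`** -/
theorem e6_nine_f4 (F : Type) [Field F] [Fintype F] (hF : Fintype.card F = 9)
    {H N : Subgroup ↥(Lie.chevE6.group F)} {T : Type} [Group T] (e : N ≃* (Fin 1 → T))
    (h : H209.EPX.EPS H N e) (hT : OrdDiv.Real (.f4 2) T) : False :=
  not_inE6_f4 even_two hT ((inE6 (by rw [hF]; decide) (MulEquiv.refl _)).factor one_pos e)

/-- the same for `²E₆(q)`, `q` odd -/
theorem te6_f4 (F : Type) [Field F] [Fintype F] (ho : Odd (Fintype.card F)) {q r : ℕ} (hr : Even r)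
    {H N : Subgroup ↥(Lie.twistedE6 F q)} {T : Type} [Group T] (e : N ≃* (Fin 1 → T))
    (h : H209.EPX.EPS H N e) (hT : OrdDiv.Real (.f4 r) T) : False :=
  not_inE6_f4 hr hT ((inE6_tw ho (MulEquiv.refl _)).factor one_pos e)

end Cfsg.Agent.H296.FN
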