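import Cfsg.Agent.H296.FN.LSixA
import Cfsg.Agent.H357.EP.V27
import Cfsg.Agent.OrdDiv.Main

/-!
# S5745, row `F₄(5)`, `T = L₆(2)` (helper296)

`2^{9} ≤ L₆(2^k)`, but the elementary abelian 2-subgroups of `E₆(q)`, `q` odd, have order at most `64`.
-/

set_option autoImplicit false

namespace Cfsg.Agent.H296.FN

open Cfsg Cfsg.Lie Cfsg.Agent.H357.EP

/-- `L₆(2^k)` is not in `E₆(q)`, `²E₆(q)`, `F₄(q)`, `q` odd -/
theorem not_inE6_l6 {q : ℕ} (hq : Even q) {T : Type*} [Group T] (hT : OrdDiv.Real (.psl 6 q) T) : ¬ InE6 T := by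
  intro h
  obtain ⟨K, iK, iK', hK, ⟨g⟩⟩ := hT
  have hp : CharP K 2 := by
    obtain ⟨p, hp⟩ := CharP.exists K
    obtain ⟨n, hpp, hn⟩ := FiniteField.card K p
    have h1 : Even (p ^ (n : ℕ)) := by rw [← hn, hK]; exact hq
    have h3 : p = 2 := by
      by_contra h
      exact (Nat.not_even_iff_odd.2 ((hpp.odd_of_ne_two h).pow)) h1
    exact h3 ▸ hp
  have h1 := h.card_le_hom (A := Multiplicative (Matrix (Fin 3) (Fin 3) K)) um_sq
    (g.symm.toMonoidHom.comp umP) (g.symm.injective.comp umP_injective)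
  have h2 := um_card (K := K)
  omega

/-- **row `F₄(5)`, `T = L₆(2)`** -/
theorem f4_five_l62 (F : Type) [Field F] [Fintype F] (hF : Fintype.card F = 5)
    {H N : Subgroup ↥(Lie.chevF4.group F)} {T : Type} [Group T] (e : N ≃* (Fin 1 → T))
    (h : H209.EPX.EPS H N e) (hT : OrdDiv.Real (.psl 6 2) T) : False :=
  not_inE6_l6 even_two hT ((inE6_f4 (by rw [hF]; decide) (MulEquiv.refl _)).factor one_pos e)

end Cfsg.Agent.H296.FN
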